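import Cfsg.Agent.H203.IF.Heis
import Cfsg.Agent.H203.IF.TE6Idx

/-!
# S5719, `²E₆(q)`, `q` odd: the Heisenberg groups (helper203)

`heis` : `Heis (X x) X S (x - ·)` for a long root `x` and `S ⊆ {y : (y, x) = 2}` closed under `y ↦ x - y`.
-/

set_option autoImplicit false
set_option linter.unusedSectionVars false
set_option maxHeartbeats 400000

namespace Cfsg.Agent.H203.IF.TE6

open CoxeterSystem Cfsg.Agent.ChevalleyStructure.CoxeterGeom Cfsg.Agent.Tits.Roots Cfsg.Agent.Tits.Core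
  Cfsg.Agent.Tits.RootComb Cfsg.Agent.Nodes.Comb Cfsg.Agent.Nodes.Reps Cfsg.Agent.Nodes.BNOf
  Cfsg.Agent.Nodes.RGDTwGen Cfsg.Agent.Nodes.RGDChev Cfsg.Agent.Nodes.RGDFold
  Cfsg.Agent.Nodes.RGDFoldSL Cfsg.Agent.Nodes.RGDTwE6 Cfsg.Agent.Nodes.RGDTwTab Cfsg.Agent.Nodes.RGDTwCoordE6
  Cfsg.Agent.Nodes.RGDTwCoord Cfsg.Agent.Nodes.RGDTwComE6 Cfsg.Agent.Nodes.RGDTwActE6
  Cfsg.Agent.Nodes.RGDLib Cfsg.Agent.Nodes.Bruhat
open Cfsg.Lie Cfsg.Agent.ChevalleyStructure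
open Cfsg.Agent.KFacts.TwESix.Comb (bf rts mem_rts bf_rep rho rho_root bf_rho pairing_eq)
open Cfsg.Agent.UGT.U2.FOne Cfsg.Agent.UGT.U2.FOne.TwESix
open scoped commutatorElement MatrixGroups

set_option maxRecDepth 20000 in
theorem tab_heis : ∀ x ∈ rts, bf x x = 4 → (x + x ∉ rts ∧ x ≠ -x) ∧ ∀ y ∈ rts, bf y x = 2 →
    (x + y ∉ rts ∧ y ≠ -x) ∧ (x - y ∈ rts ∧ bf (x - y) (x - y) = bf y y) ∧
    ∀ y' ∈ rts, bf y' x = 2 → y' ≠ x - y → y + y' ∉ rts ∧ y' ≠ -y := by decide +kernel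

variable {K : Type} [Field K] [Fintype K] {q : ℕ} {φ : K →+* K} (hφ : ∀ x, φ x = x ^ q)
  (hqq : ∀ t : K, (t ^ q) ^ q = t) {W : Type*} [Group W] {cs : CoxeterSystem CoxeterMatrix.F₄ W}
  {z w : Fin 4 → ℤ}

include hφ hqq in
/-- **The Heisenberg groups.** -/
theorem heis (h2K : (2 : K) ≠ 0) {x : Fin 4 → ℤ} (hx : x ∈ rts) (hl : bf x x = 4) {S : Finset (Fin 4 → ℤ)}
    (hS : ∀ y ∈ S, y ∈ rts ∧ bf y x = 2 ∧ x - y ∈ S) : Heis (X φ q x) (X φ q) S (fun y => x - y) := by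
  obtain ⟨cs, -⟩ : ∃ cs, cs = CoxeterMatrix.F₄.toCoxeterSystem := ⟨_, rfl⟩
  have hxr : IsRoot cs isCartan x := (mem_rts cs).2 hx
  obtain ⟨⟨t1, t2⟩, t3⟩ := tab_heis x hx hl
  refine ⟨fun y hy => (hS y hy).2.2, fun y _ => sub_sub_cancel x y, ?_, ?_, ?_, ?_, ?_⟩
  · intro u hu v hv
    exact commute_X hφ hqq hxr hxr t1 t2 u hu v hv
  · intro u hu y hy v hv
    obtain ⟨h1, h2, -⟩ := hS y hy
    obtain ⟨⟨h3, h4⟩, -⟩ := t3 y h1 h2
    exact commute_X hφ hqq hxr ((mem_rts cs).2 h1) h3 h4 u hu v hv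
  · intro y hy y' hy' hne u hu v hv
    obtain ⟨h1, h2, -⟩ := hS y hy
    obtain ⟨h1', h2', -⟩ := hS y' hy'
    obtain ⟨-, -, h3⟩ := t3 y h1 h2
    obtain ⟨h4, h5⟩ := h3 y' h1' h2' hne
    exact commute_X hφ hqq ((mem_rts cs).2 h1) ((mem_rts cs).2 h1') h4 h5 u hu v hv
  · intro y hy u hu v hv
    obtain ⟨h1, h2, -⟩ := hS y hy
    obtain ⟨-, ⟨h3, h4⟩, -⟩ := t3 y h1 h2
    have e : y + (x - y) = x := add_sub_cancel y x
    have := com_mem hφ hqq ((mem_rts cs).2 h1) ((mem_rts cs).2 h3) (by rw [e]; exact hxr) (by rw [e]; exact hl) h4.symm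
      u hu v hv
    rwa [e] at this
  · intro y hy u hu hu1 r hr
    obtain ⟨h1, h2, -⟩ := hS y hy
    obtain ⟨-, ⟨h3, h4⟩, -⟩ := t3 y h1 h2
    have e : y + (x - y) = x := add_sub_cancel y x
    refine com_surj hφ hqq h2K ((mem_rts cs).2 h1) ((mem_rts cs).2 h3) (by rw [e]; exact hxr) (by rw [e]; exact hl)
      h4.symm u hu hu1 r ?_
    rw [e]
    exact hr

include hφ hqq in
/-- the order of the Heisenberg group -/
theorem card_QQ (h2K : (2 : K) ≠ 0) (hq : 2 ≤ q) (hK : Fintype.card K = q ^ 2) {x : Fin 4 → ℤ} (hx : x ∈ rts)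
    (hl : bf x x = 4) {S : Finset (Fin 4 → ℤ)} (hS : ∀ y ∈ S, y ∈ rts ∧ bf y x = 2 ∧ x - y ∈ S) {m : ℕ}
    (hm : ∑ y ∈ S, ex y = m) : Nat.card (QQ (X φ q x) (X φ q) S) = q ^ (m + 1) := by
  obtain ⟨cs, -⟩ : ∃ cs, cs = CoxeterMatrix.F₄.toCoxeterSystem := ⟨_, rfl⟩
  have hxr : IsRoot cs isCartan x := (mem_rts cs).2 hx
  have h1 : Nat.card (X φ q x) = q := card_long hφ hqq hq hK hxr hl
  have hne : X φ q x ≠ ⊥ := by
    intro h
    rw [h, Subgroup.card_bot] at h1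
    omega
  rw [(heis hφ hqq h2K hx hl hS).card_eq hne, h1, ← hm, pow_succ', ← Finset.prod_pow_eq_pow_sum]
  congr 1
  exact Finset.prod_congr rfl fun y hy => card_X hφ hqq hq hK ((mem_rts cs).2 (hS y hy).1)

/-- `QQ` as a join of root groups -/
theorem QQ_eq_Sup (x : Fin 4 → ℤ) (S : Finset (Fin 4 → ℤ)) :
    QQ (X φ q x) (X φ q) S = RGD.Sup (X φ q) (insert x (S : Set (Fin 4 → ℤ))) := by
  apply le_antisymm
  · refine Heis.QQ_le (RGD.le_Sup (Set.mem_insert _ _)) fun i hi => RGD.le_Sup (Set.mem_insert_of_mem _ hi)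
  · refine RGD.Sup_le ?_
    rintro z (rfl | hz)
    · exact Heis.Z_le
    · exact Heis.X_le hz

end Cfsg.Agent.H203.IF.TE6
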